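import Cfsg.Agent.Lib.ToddCox.SuzO.Lv0
set_option autoImplicit false
set_option maxRecDepth 100000
namespace Cfsg.Agent.Lib.ToddCox.SuzO

abbrev gen : ℕ → PresentedGroup Cfsg.Agent.Lib.ToddCox.Suz1782.rels := genP Cfsg.Agent.Lib.ToddCox.Suz1782.rels Cfsg.Agent.Lib.ToddCox.Suz1782.LT

theorem hLT : ∀ y, y < 7 → relW Cfsg.Agent.Lib.ToddCox.Suz1782.sg (Cfsg.Agent.Lib.ToddCox.Suz1782.LT.getD y 1) = [y] := by decide +kernel
theorem hLm : ∀ w ∈ L, ∀ a ∈ w, a < 7 := by decide +kernel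
theorem low {ρ : PresentedGroup Cfsg.Agent.Lib.ToddCox.Suz1782.rels →* Equiv.Perm (Fin 1782)}
    (hρ : ∀ r (i : Fin 1782), ((ρ (PresentedGroup.mk Cfsg.Agent.Lib.ToddCox.Suz1782.rels r) i : Fin 1782) : ℕ) = tabW Cfsg.Agent.Lib.ToddCox.Suz1782.tab (relW Cfsg.Agent.Lib.ToddCox.Suz1782.sg r) i) :
    448345497600 ≤ Nat.card (sgsG (fun w => ρ (wordVal gen w)) L 0) := by
  have hel : ∀ w ∈ L, ∀ i : Fin 1782, (((fun w => ρ (wordVal gen w)) w i : Fin 1782) : ℕ) = tabW Cfsg.Agent.Lib.ToddCox.Suz1782.tab w i :=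
    fun w hw i => rep_word hρ hLT (hLm w hw) i
  have h5 : 1 ≤ Nat.card (sgsG (fun w => ρ (wordVal gen w)) L 24) := sgsG_pos _ _
  have c4 : ∀ k, k < 3 → chkOrbPos Cfsg.Agent.Lib.ToddCox.Suz1782.tab L 23 14 3 1782 (fun q => orbR (Nat.add 3440 q)) k = true :=
    defs_of_bits 3 11 1 (by norm_num) (by
      intro j hj
      interval_cases j
      · exact lv4_0
      )
  have h4 : 3 * 1 ≤ Nat.card (sgsG (fun w => ρ (wordVal gen w)) L 23) :=
    le_trans (Nat.mul_le_mul_left 3 h5) (level_bound (by norm_num) (by norm_num) hel fx4 c4)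
  norm_num at h4
  have c3 : ∀ k, k < 192 → chkOrbPos Cfsg.Agent.Lib.ToddCox.Suz1782.tab L 18 8 192 1782 (fun q => orbR (Nat.add 3248 q)) k = true :=
    defs_of_bits 192 11 1 (by norm_num) (by
      intro j hj
      interval_cases j
      · exact lv3_0
      )
  have h3 : 192 * 3 ≤ Nat.card (sgsG (fun w => ρ (wordVal gen w)) L 18) :=
    le_trans (Nat.mul_le_mul_left 192 h4) (level_bound (by norm_num) (by norm_num) hel fx3 c3)
  norm_num at h3
  have c2 : ∀ k, k < 1050 → chkOrbPos Cfsg.Agent.Lib.ToddCox.Suz1782.tab L 13 21 1050 1782 (fun q => orbR (Nat.add 2198 q)) k = true :=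
    defs_of_bits 1050 11 1 (by norm_num) (by
      intro j hj
      interval_cases j
      · exact lv2_0
      )
  have h2 : 1050 * 576 ≤ Nat.card (sgsG (fun w => ρ (wordVal gen w)) L 13) :=
    le_trans (Nat.mul_le_mul_left 1050 h3) (level_bound (by norm_num) (by norm_num) hel fx2 c2)
  norm_num at h2
  have c1 : ∀ k, k < 416 → chkOrbPos Cfsg.Agent.Lib.ToddCox.Suz1782.tab L 7 1575 416 1782 (fun q => orbR (Nat.add 1782 q)) k = true :=
    defs_of_bits 416 11 1 (by norm_num) (by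
      intro j hj
      interval_cases j
      · exact lv1_0
      )
  have h1 : 416 * 604800 ≤ Nat.card (sgsG (fun w => ρ (wordVal gen w)) L 7) :=
    le_trans (Nat.mul_le_mul_left 416 h2) (level_bound (by norm_num) (by norm_num) hel fx1 c1)
  norm_num at h1
  have c0 : ∀ k, k < 1782 → chkOrbPos Cfsg.Agent.Lib.ToddCox.Suz1782.tab L 0 0 1782 1782 (fun q => orbR (Nat.add 0 q)) k = true :=
    defs_of_bits 1782 11 1 (by norm_num) (by
      intro j hj
      interval_cases j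
      · exact lv0_0
      )
  have h0 : 1782 * 251596800 ≤ Nat.card (sgsG (fun w => ρ (wordVal gen w)) L 0) :=
    le_trans (Nat.mul_le_mul_left 1782 h1) (level_bound (by norm_num) (by norm_num) hel fx0 c0)
  norm_num at h0
  exact h0
end Cfsg.Agent.Lib.ToddCox.SuzO
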