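import Cfsg.Agent.Lib.ToddCox.SuzC0.Step
import Cfsg.Agent.Lib.ToddCox.SuzC1.Step
import Cfsg.Agent.Lib.ToddCox.SuzC2.Step
import Cfsg.Agent.Lib.ToddCox.SuzC3.Step
import Cfsg.Agent.Lib.ToddCox.SuzC4.Step
import Cfsg.Agent.Lib.ToddCox.SuzO.Low
import Cfsg.Agent.Lib.ToddCox.SuzX.Cert
set_option autoImplicit false
set_option maxRecDepth 100000
namespace Cfsg.Agent.Lib.ToddCox.SuzO

theorem hTop : ∀ x, Cfsg.Agent.Lib.ToddCox.Suz1782.sg x true ∈ Cfsg.Agent.Lib.ToddCox.SuzC0.Js := by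
  intro x
  cases x <;> decide +kernel
theorem hTopLT : ∀ x, Cfsg.Agent.Lib.ToddCox.Suz1782.LT.getD (Cfsg.Agent.Lib.ToddCox.Suz1782.sg x true) 1 = FreeGroup.of x := by
  intro x
  cases x <;> decide +kernel
theorem card_bd : 0 < Nat.card (PresentedGroup Cfsg.Agent.Lib.ToddCox.Suz1782.rels) ∧ Nat.card (PresentedGroup Cfsg.Agent.Lib.ToddCox.Suz1782.rels) ≤ 448345497600 := by
  have h4 : 0 < Nat.card (letSub gen Cfsg.Agent.Lib.ToddCox.SuzC4.Js) ∧ Nat.card (letSub gen Cfsg.Agent.Lib.ToddCox.SuzC4.Js) ≤ 10 * 1 :=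
    card_le_of_chain Cfsg.Agent.Lib.ToddCox.SuzC4.le Cfsg.Agent.Lib.ToddCox.SuzC4.step card_letSub_nil
  have h3 : 0 < Nat.card (letSub gen Cfsg.Agent.Lib.ToddCox.SuzC3.Js) ∧ Nat.card (letSub gen Cfsg.Agent.Lib.ToddCox.SuzC3.Js) ≤ 216 * (10 * 1) :=
    card_le_of_chain Cfsg.Agent.Lib.ToddCox.SuzC3.le Cfsg.Agent.Lib.ToddCox.SuzC3.step h4
  have h2 : 0 < Nat.card (letSub gen Cfsg.Agent.Lib.ToddCox.SuzC2.Js) ∧ Nat.card (letSub gen Cfsg.Agent.Lib.ToddCox.SuzC2.Js) ≤ 280 * (216 * (10 * 1)) :=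
    card_le_of_chain Cfsg.Agent.Lib.ToddCox.SuzC2.le Cfsg.Agent.Lib.ToddCox.SuzC2.step h3
  have h1 : 0 < Nat.card (letSub gen Cfsg.Agent.Lib.ToddCox.SuzC1.Js) ∧ Nat.card (letSub gen Cfsg.Agent.Lib.ToddCox.SuzC1.Js) ≤ 416 * (280 * (216 * (10 * 1))) :=
    card_le_of_chain Cfsg.Agent.Lib.ToddCox.SuzC1.le Cfsg.Agent.Lib.ToddCox.SuzC1.step h2
  have h0 : 0 < Nat.card (letSub gen Cfsg.Agent.Lib.ToddCox.SuzC0.Js) ∧ Nat.card (letSub gen Cfsg.Agent.Lib.ToddCox.SuzC0.Js) ≤ 1782 * (416 * (280 * (216 * (10 * 1)))) :=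
    card_le_of_chain Cfsg.Agent.Lib.ToddCox.SuzC0.le Cfsg.Agent.Lib.ToddCox.SuzC0.step h1
  rw [show letSub gen Cfsg.Agent.Lib.ToddCox.SuzC0.Js = ⊤ from letSub_top hTop hTopLT, Subgroup.card_top] at h0
  norm_num at h0
  exact h0

abbrev x : PresentedGroup Cfsg.Agent.Lib.ToddCox.Suz1782.rels := wordVal gen Cfsg.Agent.Lib.ToddCox.SuzX.xw

theorem xR : ∀ w ∈ Cfsg.Agent.Lib.ToddCox.SuzX.Rb, w = Cfsg.Agent.Lib.ToddCox.SuzX.xw ∨ w ∈ Cfsg.Agent.Lib.ToddCox.Suz1782.RL.map (relW Cfsg.Agent.Lib.ToddCox.Suz1782.sg) ∨ freeVal Cfsg.Agent.Lib.ToddCox.Suz1782.LT w = 1 := by decide +kernel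
theorem xHl : Cfsg.Agent.Lib.ToddCox.SuzX.Hl = [] := rfl
theorem hcl : Subgroup.normalClosure {x} = ⊤ :=
  normalClosure_top_of_cert gen x Cfsg.Agent.Lib.ToddCox.SuzX.inv Cfsg.Agent.Lib.ToddCox.Suz1782.letters.genInv Cfsg.Agent.Lib.ToddCox.SuzX.Eo Cfsg.Agent.Lib.ToddCox.SuzX.W Cfsg.Agent.Lib.ToddCox.SuzX.isH (fun y hy => invOf_lt _ hy) Cfsg.Agent.Lib.ToddCox.SuzX.Eo_lt
    (genP_id (by decide +kernel)) Cfsg.Agent.Lib.ToddCox.SuzX.Rb (by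
      intro w hw
      rcases xR w hw with h | h
      · rw [h]
        exact Subgroup.subset_normalClosure rfl
      · rw [Cfsg.Agent.Lib.ToddCox.Suz1782.letters.word h]
        exact Subgroup.one_mem _)
    Cfsg.Agent.Lib.ToddCox.SuzX.nW Cfsg.Agent.Lib.ToddCox.SuzX.W_ge Cfsg.Agent.Lib.ToddCox.SuzX.sp Cfsg.Agent.Lib.ToddCox.SuzX.words (fun y => rfl) Cfsg.Agent.Lib.ToddCox.SuzX.defs Cfsg.Agent.Lib.ToddCox.SuzX.covered Cfsg.Agent.Lib.ToddCox.SuzX.cF Cfsg.Agent.Lib.ToddCox.SuzX.cF_zero Cfsg.Agent.Lib.ToddCox.SuzX.cF_lt Cfsg.Agent.Lib.ToddCox.SuzX.ys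
    (letSub_top (by intro x; cases x <;> decide +kernel) hTopLT) Cfsg.Agent.Lib.ToddCox.SuzX.links

def xpow : List ℕ := [nat_lit 1, nat_lit 2, nat_lit 3, nat_lit 4, nat_lit 5, nat_lit 6, nat_lit 1, nat_lit 2, nat_lit 3, nat_lit 4, nat_lit 5, nat_lit 6, nat_lit 1, nat_lit 2, nat_lit 3, nat_lit 4, nat_lit 5, nat_lit 6, nat_lit 1, nat_lit 2, nat_lit 3, nat_lit 4, nat_lit 5, nat_lit 6, nat_lit 1, nat_lit 2, nat_lit 3, nat_lit 4, nat_lit 5, nat_lit 6, nat_lit 1, nat_lit 2, nat_lit 3, nat_lit 4, nat_lit 5, nat_lit 6, nat_lit 1, nat_lit 2, nat_lit 3, nat_lit 4, nat_lit 5, nat_lit 6, nat_lit 1, nat_lit 2, nat_lit 3, nat_lit 4, nat_lit 5, nat_lit 6, nat_lit 1, nat_lit 2, nat_lit 3, nat_lit 4, nat_lit 5, nat_lit 6, nat_lit 1, nat_lit 2, nat_lit 3, nat_lit 4, nat_lit 5, nat_lit 6, nat_lit 1, nat_lit 2, nat_lit 3, nat_lit 4, nat_lit 5, nat_lit 6]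
theorem xpow_eq : xpow = powW Cfsg.Agent.Lib.ToddCox.SuzX.xw 11 := by decide +kernel
theorem xpowOK : allBelow (fun i => Nat.beq (tabW Cfsg.Agent.Lib.ToddCox.Suz1782.tab xpow i) i) 1782 11 = true := by decide +kernel
theorem xpowL : ∀ a ∈ xpow, a < 7 := by decide +kernel

def sizes : List ℕ := [1365, 416]
theorem hsum : ∀ d ∈ ssums sizes, (d + 1) ∣ 1782 → d = 0 ∨ d + 1 = 1782 := by decide +kernel

theorem main : IsSimpleGroup (PresentedGroup Cfsg.Agent.Lib.ToddCox.Suz1782.rels) ∧ Nat.card (PresentedGroup Cfsg.Agent.Lib.ToddCox.Suz1782.rels) = 448345497600 := by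
  obtain ⟨ρ, hρ⟩ := Cfsg.Agent.Lib.ToddCox.Suz1782.rep_exists
  have hc := card_bd
  have hl := low hρ
  obtain ⟨hcard, hinj⟩ := card_and_faithful hc.1 hc.2 hl (fun w _ => ⟨_, rfl⟩)
  have hfin : Finite (PresentedGroup Cfsg.Agent.Lib.ToddCox.Suz1782.rels) := Nat.finite_of_card_ne_zero (by rw [hcard]; norm_num)
  have hnt : Nontrivial (PresentedGroup Cfsg.Agent.Lib.ToddCox.Suz1782.rels) := by
    rw [← Finite.one_lt_card_iff_nontrivial, hcard]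
    norm_num
  obtain ⟨_, hb1⟩ := block_facts (d := 11) Cfsg.Agent.Lib.ToddCox.Suz1782.t6 (by norm_num) Cfsg.Agent.Lib.ToddCox.Suz1782.bk1
  obtain ⟨_, hb2⟩ := block_facts (d := 11) Cfsg.Agent.Lib.ToddCox.Suz1782.t6 (by norm_num) Cfsg.Agent.Lib.ToddCox.Suz1782.bk2
  have hconn : BlocksConn ρ (subG Cfsg.Agent.Lib.ToddCox.Suz1782.rels Cfsg.Agent.Lib.ToddCox.Suz1782.Sl) sizes 1 := ⟨conn_of_tables hρ hb1, ⟨conn_of_tables hρ hb2, trivial⟩⟩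
  have hxp : x ^ 11 = 1 := by
    rw [← wordVal_powW, ← xpow_eq]
    apply hinj
    rw [map_one]
    ext i
    rw [rep_word hρ hLT xpowL]
    exact Nat.eq_of_beq_eq_true (allBelow_spec (by norm_num) xpowOK i i.2)
  refine ⟨simple_of_rep ρ hinj (by norm_num) (subG Cfsg.Agent.Lib.ToddCox.Suz1782.rels Cfsg.Agent.Lib.ToddCox.Suz1782.Sl) (subG_fix hρ Cfsg.Agent.Lib.ToddCox.Suz1782.fix0)
    (rep_trans hρ (by norm_num) Cfsg.Agent.Lib.ToddCox.Suz1782.reach) sizes (by norm_num [sizes]) hconn hsum x 11 1 (by norm_num) hxp (by norm_num)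
    (by rw [hcard]; norm_num) hcl, hcard⟩

end Cfsg.Agent.Lib.ToddCox.SuzO
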