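import Cfsg.Agent.Lib.ToddCox.SuzO.OrbD
set_option autoImplicit false
set_option maxRecDepth 100000
namespace Cfsg.Agent.Lib.ToddCox.SuzO
open Cfsg.Agent.Lib.ToddCox.Suz1782 in
theorem lv0_0 : allBits (fun k => bif Nat.blt k 1782 then chkOrbPos Cfsg.Agent.Lib.ToddCox.Suz1782.tab L 0 0 1782 1782 (fun q => orbR (Nat.add 0 q)) k else true) 11 0 = true := by decide +kernel
theorem fx0 : ∀ w ∈ L.drop 7, tabW Cfsg.Agent.Lib.ToddCox.Suz1782.tab w 0 = 0 := by decide +kernel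
theorem lv1_0 : allBits (fun k => bif Nat.blt k 416 then chkOrbPos Cfsg.Agent.Lib.ToddCox.Suz1782.tab L 7 1575 416 1782 (fun q => orbR (Nat.add 1782 q)) k else true) 11 0 = true := by decide +kernel
theorem fx1 : ∀ w ∈ L.drop 13, tabW Cfsg.Agent.Lib.ToddCox.Suz1782.tab w 1575 = 1575 := by decide +kernel
theorem lv2_0 : allBits (fun k => bif Nat.blt k 1050 then chkOrbPos Cfsg.Agent.Lib.ToddCox.Suz1782.tab L 13 21 1050 1782 (fun q => orbR (Nat.add 2198 q)) k else true) 11 0 = true := by decide +kernel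
theorem fx2 : ∀ w ∈ L.drop 18, tabW Cfsg.Agent.Lib.ToddCox.Suz1782.tab w 21 = 21 := by decide +kernel
theorem lv3_0 : allBits (fun k => bif Nat.blt k 192 then chkOrbPos Cfsg.Agent.Lib.ToddCox.Suz1782.tab L 18 8 192 1782 (fun q => orbR (Nat.add 3248 q)) k else true) 11 0 = true := by decide +kernel
theorem fx3 : ∀ w ∈ L.drop 23, tabW Cfsg.Agent.Lib.ToddCox.Suz1782.tab w 8 = 8 := by decide +kernel
theorem lv4_0 : allBits (fun k => bif Nat.blt k 3 then chkOrbPos Cfsg.Agent.Lib.ToddCox.Suz1782.tab L 23 14 3 1782 (fun q => orbR (Nat.add 3440 q)) k else true) 11 0 = true := by decide +kernel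
theorem fx4 : ∀ w ∈ L.drop 24, tabW Cfsg.Agent.Lib.ToddCox.Suz1782.tab w 14 = 14 := by decide +kernel
end Cfsg.Agent.Lib.ToddCox.SuzO
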